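import Cfsg.Agent.H133.OB.OrthRot
import Cfsg.Agent.H133.OB.Base
import Cfsg.Agent.GenOrth.Rows
import Cfsg.Agent.S0301
import Cfsg.Agent.S0302
import Cfsg.Agent.S0303

/-!
# S5003: orthogonal groups, `p ∣ q² - 1`

An element of order `p` of `Ω(Q)` fixing a subspace of codimension two pointwise has `Ω(Q')` as a normal
subgroup of its centralizer.
-/

set_option autoImplicit false

namespace Cfsg.Agent.H133.OB

open QuadraticMap Cfsg Subgroup
open Cfsg.Agent.LieClassical.OrthCore Cfsg.Agent.LieClassical.OrthTrans Cfsg.Agent.LieClassical.OrthSimple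
open Cfsg.Agent.LieClassical.OrthForms Cfsg.Agent.LieClassical.OrthFinite Cfsg.Agent.GenOrth
open Cfsg.Agent.TitsThree.KSideO

section

variable {ι ι' : Type} [Fintype ι] [DecidableEq ι] [Fintype ι'] [DecidableEq ι'] {F : Type} [Field F] [Fintype F]
  {Q : QuadraticForm F (ι → F)} {Q' : QuadraticForm F (ι' → F)} {p : ℕ}

theorem finite_pomega : Finite (POmega F ⇑Q) := by
  have : Finite (Matrix.GeneralLinearGroup ι F) := by
    unfold Matrix.GeneralLinearGroup; infer_instance
  infer_instance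

omit [Fintype F] in
theorem nb_E [Fact p.Prime] (hG' : Good Q') [Finite (E Q')] (h : NB p (POmega F ⇑Q')) : NB p (E Q') := by
  refine NB.of_surjective (toPOmega hG') (toPOmega_surjective hG') ?_ h
  intro g hg
  exact center_of_toPOmega hG' hg

theorem nb_of_emb [hpf : Fact p.Prime] (hp2 : p ≠ 2) (hG : Good Q) (hG' : Good Q') {τ : F} (hτ : τ ^ 2 ≠ 4)
    {x y : ι → F} (h : Pair Q τ x y)
    (hp : ∀ (t : Module.End F (ι → F)) (v : ι → F), t (t v) = (τ ^ 2 - 2) • t v - v → (t ^ p) v = v)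
    (e : Emb Q Q') (he1 : ∀ v, polar Q x v = 0 → polar Q y v = 0 → e.j (e.π v) = v)
    (he2 : ∀ u, polar Q x (e.j u) = 0 ∧ polar Q y (e.j u) = 0)
    (hNB : NB p (POmega F ⇑Q')) : NB p (POmega F ⇑Q) := by
  have := finite_pomega (Q := Q)
  let f := MulEquiv.refl (POmega F ⇑Q)
  obtain ⟨t, ht⟩ : ∃ t : E Q, t = ⟨rot h, rot_mem hG h⟩ := ⟨_, rfl⟩
  have htv : ∀ v, (t : (ι → F) ≃ₗ[F] (ι → F)) v = rot h v := fun v => by rw [ht]
  have htp : t ^ p = 1 := by
    apply Subtype.ext
    rw [ht]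
    exact rot_pow hτ h hp
  have hj0 : ∀ v, (∀ u, polar Q (e.j u) v = 0) → e.π v = 0 := by
    intro v hv
    apply e.nd
    intro u
    have h1 := e.adj u v
    rw [hv u] at h1
    rw [polar_comm]
    exact (mul_eq_zero.1 h1.symm).resolve_left e.hc
  have hπx : e.π x = 0 := hj0 x fun u => by rw [polar_comm]; exact (he2 u).1
  have hπy : e.π y = 0 := hj0 y fun u => by rw [polar_comm]; exact (he2 u).2
  have hx0 : x ≠ 0 := by
    rintro rfl
    have := h.qx
    rw [QuadraticMap.map_zero] at this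
    exact zero_ne_one this
  have hinj := proj_ext_injective hG f e hx0 hπx
  set K : Subgroup (POmega F ⇑Q) := ((proj hG f).comp e.extE).range with hK
  have iso : ↥(E Q') ≃* ↥K := MonoidHom.ofInjective hinj
  have : Finite (E Q') := Finite.of_equiv _ iso.symm.toEquiv
  -- `t` fixes the image of `j`
  have hfix : ∀ u, rot h (e.j u) = e.j u := fun u => rot_perp h (he2 u).1 (he2 u).2
  have hπt : ∀ v, e.π (rot h v) = e.π v := by
    intro v
    rw [rot_apply, map_sub, map_sub, map_smul, map_smul, hπx, hπy, smul_zero, smul_zero, sub_zero, sub_zero]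
  refine NB.of_singleton_le (proj hG f t) ⟨1, ?_⟩ K ?_ ?_ (NB.iso iso (nb_E hG' hNB))
  · rw [pow_one, ← map_pow, htp, map_one]
  · rintro _ ⟨k, rfl⟩
    rw [mem_centralizer_singleton_iff]
    show proj hG f (e.extE k) * proj hG f t = proj hG f t * proj hG f (e.extE k)
    rw [← map_mul, ← map_mul]
    congr 1
    apply Subtype.ext
    ext1 v
    show e.ext k.1 (t.1 v) = t.1 (e.ext k.1 v)
    rw [htv, htv, Emb.ext_apply, Emb.ext_apply, hπt, map_add, hfix]
  · intro g hg
    obtain ⟨g, rfl⟩ := proj_surjective hG f g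
    rw [mem_centralizer_singleton_iff, ← map_mul, ← map_mul] at hg
    have h1 : proj hG f (g * t * (t * g)⁻¹) = 1 := by
      rw [map_mul (proj hG f) (g * t), map_inv, hg, mul_inv_cancel]
    obtain ⟨c, hc, hcv⟩ := scalar_of_proj hG f h1
    have h3 : ∀ v, g.1 (t.1 v) = c • t.1 (g.1 v) := by
      intro v
      have h4 := hcv (t.1 (g.1 v))
      rw [← h4]
      show g.1 (t.1 v) = ((g * t * (t * g)⁻¹ : E Q) : (ι → F) ≃ₗ[F] (ι → F)) (((t * g : E Q) : (ι → F) ≃ₗ[F] (ι → F)) v)
      have h5 : ((g * t * (t * g)⁻¹ : E Q) : (ι → F) ≃ₗ[F] (ι → F)) (((t * g : E Q) : (ι → F) ≃ₗ[F] (ι → F)) v) =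
          (((g * t * (t * g)⁻¹ * (t * g) : E Q) : (ι → F) ≃ₗ[F] (ι → F))) v := rfl
      rw [h5, inv_mul_cancel_right]
      rfl
    have h4 : ∀ (n : ℕ) (v : ι → F), g.1 ((t.1 ^ n) v) = c ^ n • (t.1 ^ n) (g.1 v) := by
      intro n
      induction n with
      | zero => intro v; simp
      | succ n ih =>
        intro v
        rw [pow_succ' (t.1) n, pow_succ' c n]
        show g.1 (t.1 ((t.1 ^ n) v)) = (c * c ^ n) • t.1 ((t.1 ^ n) (g.1 v))
        rw [h3, ih, map_smul, smul_smul]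
    have hc1 : c = 1 := by
      have h5 := h4 p x
      have h6 : t.1 ^ p = 1 := by
        have := congrArg Subtype.val htp
        simpa using this
      rw [h6] at h5
      have h7 : g.1 x = c ^ p • g.1 x := h5
      have h8 : g.1 x ≠ 0 := by
        intro h9
        exact hx0 (g.1.map_eq_zero_iff.1 h9)
      have h9 : c ^ p = 1 := by
        have h10 : (c ^ p - 1) • g.1 x = 0 := by rw [sub_smul, one_smul, ← h7, sub_self]
        exact sub_eq_zero.1 ((smul_eq_zero.1 h10).resolve_right h8)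
      rcases hc with hc | hc
      · exact hc
      · rw [hc, (hpf.out.odd_of_ne_two hp2).neg_one_pow] at h9
        rw [hc, h9]
    have h5 : ∀ v, g.1 (rot h v) = rot h (g.1 v) := by
      intro v
      have := h3 v
      rw [hc1, one_smul, htv, htv] at this
      exact this
    have h6 : ∀ u, e.j (e.π (g.1 (e.j u))) = g.1 (e.j u) := by
      intro u
      have h7 : rot h (g.1 (e.j u)) = g.1 (e.j u) := by rw [← h5, hfix]
      obtain ⟨h8, h9⟩ := rot_fix hτ h h7
      exact he1 _ h8 h9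
    have h6' : ∀ u, e.j (e.π (g.1.symm (e.j u))) = g.1.symm (e.j u) := by
      intro u
      have h7 : rot h (g.1.symm (e.j u)) = g.1.symm (e.j u) := by
        apply g.1.injective
        rw [h5, LinearEquiv.apply_symm_apply, hfix]
      obtain ⟨h8, h9⟩ := rot_fix hτ h h7
      exact he1 _ h8 h9
    have hgO : g.1 ∈ O Q := E_le_O g.2
    have h7 : ∀ v, g.1 (e.j (e.π v)) = e.j (e.π (g.1 v)) := by
      intro v
      have h8 : e.π (g.1 (v - e.j (e.π v))) = 0 := by
        apply hj0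
        intro u
        have h9 : polar Q (g.1 (g.1.symm (e.j u))) (g.1 (v - e.j (e.π v))) =
            polar Q (g.1.symm (e.j u)) (v - e.j (e.π v)) := polar_map hgO _ _
        rw [LinearEquiv.apply_symm_apply] at h9
        rw [h9, ← h6', e.adj, map_sub, e.π_j, sub_self]
        simp
      rw [map_sub, map_sub, sub_eq_zero] at h8
      rw [h8, h6]
    obtain ⟨g', hg', k1, k2⟩ := Emb.exists_restrict hgO h7
    rintro _ ⟨k, rfl⟩
    refine ⟨⟨g' * k.1 * g'⁻¹, conj_mem_E hg' k.2⟩, ?_⟩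
    show proj hG f (e.extE _) = proj hG f g * proj hG f (e.extE k) * (proj hG f g)⁻¹
    rw [← map_mul, ← map_inv, ← map_mul]
    congr 1
    exact Subtype.ext (Emb.conj_ext k1 k2 k.1).symm

/-- hypotheses: the rows `PSp₄(q)`, `PSL₄(q)`, `PSU₄(q)` -/
structure Small (p : ℕ) (F : Type) [Field F] [Fintype F] : Prop where
  psp : Odd (Fintype.card F) → NB p (PSp 2 F)
  psl : NB p (Matrix.ProjectiveSpecialLinearGroup (Fin 4) F)
  psu : ∃ (K : Type) (_ : Field K) (_ : Fintype K), Fintype.card K = Fintype.card F ^ 2 ∧ NB p (PSU 4 K (Fintype.card F))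

theorem nb_five (H : Small p F) (h2 : Odd (Fintype.card F)) : NB p (POmega F ⇑(oddForm 2 F)) := by
  obtain ⟨e⟩ := S0301.result (F := F) h2
  rw [coe_oddForm]
  exact NB.iso e.symm (H.psp h2)

theorem nb_six_plus (H : Small p F) : NB p (POmega F ⇑(plusForm 3 F)) := by
  obtain ⟨e⟩ := S0302.result (F := F)
  rw [coe_plusForm]
  exact NB.iso e.symm H.psl

theorem nb_six_minus (H : Small p F) {a b : F} (hab : Aniso a b) : NB p (POmega F ⇑(minusForm 2 F a b)) := by
  obtain ⟨K, _, _, hK, hNB⟩ := H.psu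
  obtain ⟨e⟩ := S0303.result (F := F) (K := K) rfl hK a b hab
  rw [coe_minusForm]
  exact NB.iso e.symm hNB

/-- the three standard forms of dimension `n` -/
def Std (p : ℕ) (F : Type) [Field F] [Fintype F] (n : ℕ) : Prop :=
  (∀ k, n = 2 * k + 1 → Odd (Fintype.card F) → NB p (POmega F ⇑(oddForm k F))) ∧
  (∀ k, n = 2 * k → NB p (POmega F ⇑(plusForm k F))) ∧
  (∀ k, n = 2 * k + 2 → ∀ a b : F, Aniso a b → NB p (POmega F ⇑(minusForm k F a b)))

theorem nb_step [hpf : Fact p.Prime] (hp2 : p ≠ 2) (hd : p ∣ Fintype.card F ^ 2 - 1) (hG : Good Q) {n : ℕ}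
    (hn : Fintype.card ι = n + 2) (hn5 : 5 ≤ n) (hodd : Odd n → Odd (Fintype.card F)) (ih : Std p F n) :
    NB p (POmega F ⇑Q) := by
  obtain ⟨τ, hτ, hp⟩ := exists_trace (F := F) hpf.out hp2 hd
  obtain ⟨x, y, h⟩ := exists_pair hG τ
  have hsp := split_of_pair hτ h
  have h1 := finrank_Comp hsp
  rw [Module.finrank_fintype_fun_eq_card, hn] at h1
  rcases normal_form n (nondeg_restr hG.nondeg hsp) (by omega) with ⟨k, hk, hs⟩ | ⟨k, hk, hs⟩ | ⟨k, hk, a, b, hab, hs⟩
  · have ho := hodd ⟨k, hk⟩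
    rw [← coe_oddForm] at hs
    obtain ⟨e, he1, he2⟩ := exists_emb hτ h (nondeg_oddForm k F (two_ne_zero_of_odd ho)) hs
    exact nb_of_emb hp2 hG (good_odd (by omega) (two_ne_zero_of_odd ho)) hτ h (fun t v => hp t v) e he1 he2
      (ih.1 k hk ho)
  · rw [← coe_plusForm] at hs
    obtain ⟨e, he1, he2⟩ := exists_emb hτ h (nondeg_plusForm k F) hs
    exact nb_of_emb hp2 hG (good_plus (by omega)) hτ h (fun t v => hp t v) e he1 he2 (ih.2.1 k hk)
  · rw [← coe_minusForm] at hs
    obtain ⟨e, he1, he2⟩ := exists_emb hτ h (nondeg_minusForm k F a b hab) hs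
    exact nb_of_emb hp2 hG (good_minus (by omega) hab) hτ h (fun t v => hp t v) e he1 he2 (ih.2.2 k hk a b hab)

end

theorem std_all {F : Type} [Field F] [Fintype F] {p : ℕ} [hpf : Fact p.Prime] (hp2 : p ≠ 2)
    (hd : p ∣ Fintype.card F ^ 2 - 1) (H : Small p F) : ∀ n : ℕ, 5 ≤ n → Std p F n := by
  intro n
  induction n using Nat.strong_induction_on with
  | _ n ih =>
  intro hn
  by_cases h7 : 7 ≤ n
  · obtain ⟨m, rfl⟩ : ∃ m, n = m + 2 := ⟨n - 2, by omega⟩
    have ih' := ih m (by omega) (by omega)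
    refine ⟨fun k hk ho => ?_, fun k hk => ?_, fun k hk a b hab => ?_⟩
    · exact nb_step hp2 hd (good_odd (by omega) (two_ne_zero_of_odd ho)) (n := m)
        (by simp; omega) (by omega) (fun _ => ho) ih'
    · exact nb_step hp2 hd (good_plus (by omega)) (n := m) (by simp; omega) (by omega)
        (fun h => by obtain ⟨j, hj⟩ := h; omega) ih'
    · exact nb_step hp2 hd (good_minus (by omega) hab) (n := m) (by simp; omega) (by omega)
        (fun h => by obtain ⟨j, hj⟩ := h; omega) ih'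
  · have h56 : n = 5 ∨ n = 6 := by omega
    rcases h56 with rfl | rfl
    · refine ⟨fun k hk ho => ?_, fun k hk => by omega, fun k hk => by omega⟩
      obtain rfl : k = 2 := by omega
      exact nb_five H ho
    · refine ⟨fun k hk => by omega, fun k hk => ?_, fun k hk a b hab => ?_⟩
      · obtain rfl : k = 3 := by omega
        exact nb_six_plus H
      · obtain rfl : k = 2 := by omega
        exact nb_six_minus H hab

theorem nb_omega_odd {F : Type} [Field F] [Fintype F] {p : ℕ} [hpf : Fact p.Prime] (hp2 : p ≠ 2)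
    (hd : p ∣ Fintype.card F ^ 2 - 1) (H : Small p F) (h2 : Odd (Fintype.card F)) {m : ℕ} (hm : 3 ≤ m) :
    NB p (POmega F (quadFormOdd m F)) := by
  rw [← coe_oddForm]
  exact (std_all hp2 hd H (2 * m + 1) (by omega)).1 m rfl h2

theorem nb_omega_plus {F : Type} [Field F] [Fintype F] {p : ℕ} [hpf : Fact p.Prime] (hp2 : p ≠ 2)
    (hd : p ∣ Fintype.card F ^ 2 - 1) (H : Small p F) {m : ℕ} (hm : 4 ≤ m) :
    NB p (POmega F (quadFormPlus m F)) := by
  rw [← coe_plusForm]
  exact (std_all hp2 hd H (2 * m) (by omega)).2.1 m rfl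

theorem nb_omega_minus {F : Type} [Field F] [Fintype F] {p : ℕ} [hpf : Fact p.Prime] (hp2 : p ≠ 2)
    (hd : p ∣ Fintype.card F ^ 2 - 1) (H : Small p F) {m : ℕ} (hm : 4 ≤ m) (a b : F)
    (hab : ∀ z₁ z₂ : F, z₁ ^ 2 + a * z₁ * z₂ + b * z₂ ^ 2 = 0 → z₁ = 0 ∧ z₂ = 0) :
    NB p (POmega F (quadFormMinus (m - 1) F a b)) := by
  rw [← coe_minusForm]
  exact (std_all hp2 hd H (2 * m) (by omega)).2.2 (m - 1) (by omega) a b hab

end Cfsg.Agent.H133.OB
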